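import Cfsg.Agent.H11.U62.Cover

/-! Every stem extension of the unitary group of dimension six over four elements is an image of the
cover: lifts of the seven transvections satisfy the relators up to central squares. -/

set_option autoImplicit false
set_option maxRecDepth 8000
set_option maxHeartbeats 1000000

namespace Cfsg.Agent.H11.U62

open Cfsg.Agent.H16 Cfsg.Agent.H16.EnumData Cfsg.Agent.H16.CoxEnum
open scoped commutatorElement

local notation "G0" => PSU 6 Cfsg.Agent.H16.F4 2

theorem piVal_rev (w : List Nat) : ev piVal w.reverse = (ev piVal w)⁻¹ := ev_reverse _ piVal_sq w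

theorem eq_of_scalarW {u v : List Nat} (h : scalarW (u ++ v.reverse) = true) :
    ev piVal u = ev piVal v := by
  have h1 := eq_one_of_scalarW h
  rw [ev_append, piVal_rev] at h1
  exact (inv_mul_eq_one.1 h1).symm

/-- check of a factorisation into elements of odd order commuting with the first generator -/
noncomputable def partsOk (h : List Nat) (parts : List (List Nat × Nat)) : Bool :=
  scalarW (h ++ ((parts.map fun p => p.1).flatten).reverse) &&
    parts.all fun p => Nat.beq (p.2 % 2) 1 && scalarW (List.replicate p.2 p.1).flatten &&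
      scalarW ([0] ++ p.1 ++ [0] ++ p.1.reverse)

/-- does a word match a certificate -/
noncomputable def stabW (w : List Nat) : Bool :=
  stabCerts.any fun c => if scalarW (w ++ c.1.reverse) then partsOk c.1 c.2 else false

/-- word of an element whose fixing gives a commuting or braiding pair -/
def pairStab (b : Bool) (i j : Nat) : List Nat :=
  match b with
  | true => liftWords.getD i [] ++ [j] ++ (liftWords.getD i []).reverse
  | false => liftWords.getD i [] ++ [j, i] ++ (liftWords.getD j []).reverse

/-- check of a relator word -/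
noncomputable def relWordOk (w : List Nat) : Bool :=
  w.isEmpty || (List.range 7).any (fun i => w == [i, i]) ||
    ((List.range 7).any fun i => (List.range 7).any fun j =>
      if w == [i, j, i, j] then stabW (pairStab true i j)
      else if w == [i, j, i, j, i, j] then stabW (pairStab false i j) else false) ||
    (w == extWord0 ++ [0] ++ extWord0.reverse ++ [0] && stabW extWord0) ||
    (w == extWord1 ++ [0] ++ extWord1.reverse ++ [0] && stabW extWord1)

theorem relWords_ok : ∀ w ∈ baseWords, relWordOk w = true := by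
  have h : baseWords.all relWordOk = true := by decide +kernel
  exact fun w hw => List.all_eq_true.mp h w hw

theorem liftWord_ok : ∀ i : Fin 7,
    scalarW ((liftWords.getD i []).reverse ++ [0] ++ liftWords.getD i [] ++ [(i : Nat)]) = true := by
  decide +kernel

theorem liftWord_spec {i : Nat} (hi : i < 7) :
    ev piVal (liftWords.getD i []) * piVal 0 * (ev piVal (liftWords.getD i []))⁻¹ = piVal i := by
  have h := eq_one_of_scalarW (liftWord_ok ⟨i, hi⟩)
  rw [ev_append, ev_append, ev_append, piVal_rev] at h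
  simp only [ev, one_mul] at h
  rw [mul_assoc, eq_inv_of_mul_eq_one_right h, inv_eq_of_mul_eq_one_right (piVal_sq i)]

section

variable {E : Type} [Group E] (σ : E →* G0) (hσ : IsStemExtension σ)

include hσ in
theorem stem_perfect [Finite E] : commutator E = ⊤ := by
  rw [eq_top_iff]
  intro e _
  have h : (commutator E).map σ = ⊤ := by
    rw [commutator_def, Subgroup.map_commutator, Subgroup.map_top_of_surjective _ hσ.1, ← commutator_def]
    exact commutator_psu
  obtain ⟨c, hc, hce⟩ := (h.symm ▸ Subgroup.mem_top (σ e) : σ e ∈ (commutator E).map σ)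
  have hk : c⁻¹ * e ∈ commutator E :=
    hσ.2.2 (by rw [MonoidHom.mem_ker, map_mul, map_inv, hce, inv_mul_cancel])
  simpa using mul_mem hc hk

end

/-- a choice of lifts of the generators -/
structure Lifts {E : Type} [Group E] (σ : E →* G0) (y : Nat → E) : Prop where
  central : σ.ker ≤ Subgroup.center E
  map : ∀ g, σ (y g) = piVal g

namespace Lifts

variable {E : Type} [Group E] {σ : E →* G0} {y : Nat → E} (L : Lifts σ y)
include L

theorem map_ev (w : List Nat) : σ (ev y w) = ev piVal w := by
  rw [ev_map]; simp only [L.map]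

theorem comm_of_ker {k : E} (hk : σ k = 1) (e : E) : Commute k e :=
  (Subgroup.mem_center_iff.1 (L.central hk) e).symm

theorem sq_central (g : Nat) (e : E) : Commute (y g * y g) e :=
  L.comm_of_ker (by rw [map_mul, L.map, piVal_sq]) e

/-- lifts with the same image commute alike -/
theorem commute_congr {u v x : E} (h : σ u = σ v) (hv : Commute v x) : Commute u x := by
  have hu : u = v * (v⁻¹ * u) := (mul_inv_cancel_left v u).symm
  rw [hu]
  exact hv.mul_left (L.comm_of_ker (by rw [map_mul, map_inv, h, inv_mul_cancel]) x)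

theorem odd_commute {u : E} {m : Nat} (hm : m % 2 = 1) (hum : σ (u ^ m) = 1)
    (hc : Commute (piVal 0) (σ u)) : Commute u (y 0) := by
  set c := u * y 0 * u⁻¹ * (y 0)⁻¹ with hcdef
  have hck : σ c = 1 := by
    rw [hcdef, map_mul, map_mul, map_mul, map_inv, map_inv, L.map, ← hc.eq, mul_assoc (piVal 0),
      mul_inv_cancel, mul_one, mul_inv_cancel]
  have hconj : u * y 0 * u⁻¹ = c * y 0 := by rw [hcdef, inv_mul_cancel_right]
  have hc2 : c * c = 1 := by
    have h1 : u * (y 0 * y 0) * u⁻¹ = y 0 * y 0 := by
      rw [← (L.sq_central 0 u).eq, mul_inv_cancel_right]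
    have h2 : u * (y 0 * y 0) * u⁻¹ = (c * y 0) * (c * y 0) := by
      rw [← hconj]; simp [mul_assoc]
    rw [h1, (L.comm_of_ker hck (y 0)).symm.mul_mul_mul_comm] at h2
    exact (mul_eq_right.1 h2.symm)
  clear_value c
  have hpow : ∀ n : Nat, u ^ n * y 0 * (u ^ n)⁻¹ = c ^ n * y 0 := by
    intro n
    induction n with
    | zero => simp
    | succ n ih =>
      calc u ^ (n + 1) * y 0 * (u ^ (n + 1))⁻¹ = u * (u ^ n * y 0 * (u ^ n)⁻¹) * u⁻¹ := by
            rw [pow_succ']; simp [mul_assoc]
        _ = c ^ n * (u * y 0 * u⁻¹) := by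
            rw [ih, ← mul_assoc, ← ((L.comm_of_ker hck u).pow_left n).eq]; simp [mul_assoc]
        _ = c ^ (n + 1) * y 0 := by rw [hconj, pow_succ, mul_assoc]
  have h := hpow m
  rw [((L.comm_of_ker hum) (y 0)).eq, mul_inv_cancel_right] at h
  have hcm : c ^ m = 1 := mul_eq_right.1 h.symm
  have hce : c = 1 := by
    obtain ⟨k, rfl⟩ : ∃ k, m = 2 * k + 1 := ⟨m / 2, by omega⟩
    rwa [pow_succ, pow_mul, pow_two, hc2, one_pow, one_mul] at hcm
  rw [hce, one_mul, mul_inv_eq_iff_eq_mul] at hconj
  exact hconj

theorem commute_stab {w : List Nat} (hw : stabW w = true) {u : E} (hu : σ u = ev piVal w) :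
    Commute u (y 0) := by
  rw [stabW, List.any_eq_true] at hw
  obtain ⟨⟨h, parts⟩, -, hc⟩ := hw
  split at hc
  · rename_i hs
    rw [partsOk, Bool.and_eq_true, List.all_eq_true] at hc
    obtain ⟨hfl, hparts⟩ := hc
    refine L.commute_congr (v := ev y (parts.map fun p => p.1).flatten) ?_ ?_
    · rw [hu, L.map_ev, eq_of_scalarW hs, eq_of_scalarW hfl]
    · clear hfl hu hs
      induction parts with
      | nil => exact Commute.one_left _
      | cons p t ih =>
        rw [List.map_cons, List.flatten_cons, ev_append]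
        refine (ih fun q hq => hparts q (List.mem_cons_of_mem _ hq)).mul_left ?_
        have hp := hparts p (List.mem_cons_self ..)
        simp only [Bool.and_eq_true] at hp
        obtain ⟨⟨hodd, hpow⟩, hcomm⟩ := hp
        refine L.odd_commute (m := p.2) (Nat.eq_of_beq_eq_true hodd) ?_ ?_
        · have h1 := eq_one_of_scalarW hpow
          have h2 : ∀ n, ev piVal (List.replicate n p.1).flatten = (ev piVal p.1) ^ n := by
            intro n
            induction n with
            | zero => simp [ev]
            | succ n ih2 => rw [List.replicate_succ, List.flatten_cons, ev_append, ih2, pow_succ]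
          rw [map_pow, L.map_ev, ← h2, h1]
        · have h1 := eq_one_of_scalarW hcomm
          rw [ev_append, ev_append, ev_append, piVal_rev] at h1
          simp only [ev, one_mul] at h1
          rw [L.map_ev]
          show piVal 0 * ev piVal p.1 = ev piVal p.1 * piVal 0
          have e : piVal 0 * ev piVal p.1 * piVal 0 = ev piVal p.1 := by
            have h2 := eq_inv_of_mul_eq_one_right h1
            rw [inv_inv, ← mul_assoc] at h2
            exact h2
          calc piVal 0 * ev piVal p.1 = piVal 0 * ev piVal p.1 * piVal 0 * piVal 0 := by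
                rw [mul_assoc _ (piVal 0) (piVal 0), piVal_sq, mul_one]
            _ = ev piVal p.1 * piVal 0 := by rw [e]
  · exact absurd hc (by simp)

end Lifts

/-- a transvection lift: conjugate of the first -/
def lx {E : Type} [Group E] (y : Nat → E) (i : Nat) : E :=
  if i < 7 then ev y (liftWords.getD i []) * y 0 * (ev y (liftWords.getD i []))⁻¹ else 1

namespace Lifts

variable {E : Type} [Group E] {σ : E →* G0} {y : Nat → E} (L : Lifts σ y)
include L

theorem map_lx {i : Nat} (hi : i < 7) : σ (lx y i) = piVal i := by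
  rw [lx, if_pos hi, map_mul, map_mul, map_inv, L.map_ev, L.map, liftWord_spec hi]

theorem lx_sq {i : Nat} (hi : i < 7) : lx y i * lx y i = y 0 * y 0 := by
  rw [lx, if_pos hi]
  calc _ = ev y (liftWords.getD i []) * (y 0 * y 0) * (ev y (liftWords.getD i []))⁻¹ := by
        simp [mul_assoc]
    _ = y 0 * y 0 := by rw [← (L.sq_central 0 _).eq, mul_inv_cancel_right]

theorem lx_commute {i j : Nat} (hi : i < 7) (hj : j < 7) (h : stabW (pairStab true i j) = true) :
    Commute (lx y i) (lx y j) := by
  set p := ev y (liftWords.getD i []) with hp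
  have h1 : Commute (p⁻¹ * lx y j * p) (y 0) := L.commute_stab h (by
    rw [pairStab, ev_append, ev_append, piVal_rev, map_mul, map_mul, map_inv, L.map_lx hj, L.map_ev]
    simp [ev, mul_assoc])
  have h2 := h1.map (MulAut.conj p).toMonoidHom
  simp only [MulEquiv.coe_toMonoidHom, MulAut.conj_apply] at h2
  rw [show p * (p⁻¹ * lx y j * p) * p⁻¹ = lx y j by simp [mul_assoc],
    show p * y 0 * p⁻¹ = lx y i by rw [lx, if_pos hi]] at h2
  exact h2.symm

theorem lx_braid {i j : Nat} (hi : i < 7) (hj : j < 7) (h : stabW (pairStab false i j) = true) :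
    lx y i * lx y j * lx y i = lx y j * lx y i * lx y j := by
  set p := ev y (liftWords.getD i []) with hp
  set r := ev y (liftWords.getD j []) with hr
  have h1 : Commute (r⁻¹ * (lx y i * lx y j) * p) (y 0) := L.commute_stab h (by
    rw [pairStab, ev_append, ev_append, piVal_rev, map_mul, map_mul, map_mul, map_inv, L.map_lx hi,
      L.map_lx hj, L.map_ev, L.map_ev]
    simp [ev, mul_assoc])
  have e1 : lx y i * p = p * y 0 := by rw [lx, if_pos hi, inv_mul_cancel_right]
  have e2 : r * y 0 = lx y j * r := by rw [lx, if_pos hj, inv_mul_cancel_right]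
  have h2 : lx y i * lx y j * lx y i * p = lx y j * (lx y i * lx y j) * p := by
    calc lx y i * lx y j * lx y i * p = r * ((r⁻¹ * (lx y i * lx y j) * p) * y 0) := by
          rw [mul_assoc _ (lx y i) p, e1]; simp [mul_assoc]
      _ = r * (y 0 * (r⁻¹ * (lx y i * lx y j) * p)) := by rw [h1.eq]
      _ = lx y j * (lx y i * lx y j) * p := by
          rw [← mul_assoc, e2]; simp [mul_assoc]
  rw [← mul_assoc] at h2
  exact mul_right_cancel h2

end Lifts

section stem

variable {E : Type} [Group E] [Finite E] (σ : E →* G0) (hσ : IsStemExtension σ)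
include hσ

theorem exists_lift_hom : ∃ θ : Gam →* E, Function.Surjective θ ∧ σ.comp θ = proj := by
  classical
  choose y hy using fun g => hσ.1 (piVal g)
  have L : Lifts σ y := ⟨hσ.2.1, hy⟩
  set Z : Subgroup (E × Multiplicative ℤ) :=
    Subgroup.zpowers (y 0 * y 0, Multiplicative.ofAdd (2 : ℤ)) with hZ
  have hZn : Z.Normal := ⟨fun n hn g => by
    obtain ⟨k, rfl⟩ := hn
    have hc : Commute (y 0 * y 0, Multiplicative.ofAdd (2 : ℤ)) g :=
      Prod.ext (L.sq_central 0 g.1).eq (mul_comm _ _)
    rw [show g * (y 0 * y 0, Multiplicative.ofAdd (2 : ℤ)) ^ k * g⁻¹ =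
      (y 0 * y 0, Multiplicative.ofAdd (2 : ℤ)) ^ k by rw [← (hc.zpow_left k).eq, mul_inv_cancel_right]]
    exact ⟨k, rfl⟩⟩
  set q : E × Multiplicative ℤ →* (E × Multiplicative ℤ) ⧸ Z := QuotientGroup.mk' Z with hq
  set s : Nat → E × Multiplicative ℤ :=
    fun g => if g < 7 then (lx y g, Multiplicative.ofAdd 1) else 1 with hs
  set f : Nat → (E × Multiplicative ℤ) ⧸ Z := fun g => q (s g) with hf
  have hz : q (y 0 * y 0, Multiplicative.ofAdd (2 : ℤ)) = 1 :=
    (QuotientGroup.eq_one_iff _).2 (Subgroup.mem_zpowers _)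
  have hs7 : ∀ g, g < 7 → s g = (lx y g, Multiplicative.ofAdd 1) := fun g hg => if_pos hg
  have hfsq : ∀ g, f g * f g = 1 := by
    intro g
    by_cases hg : g < 7
    · show q (s g) * q (s g) = 1
      rw [← map_mul, hs7 g hg, Prod.mk_mul_mk, L.lx_sq hg]
      exact hz
    · simp [hf, hs, if_neg hg]
  have hext : ∀ w : List Nat, (∀ g ∈ w, g < 7) → stabW w = true →
      ev f (w ++ [0] ++ w.reverse ++ [0]) = 1 := by
    intro w hwlt hw
    have hx0 : lx y 0 = y 0 := by
      rw [lx, if_pos (by norm_num), show liftWords.getD 0 [] = [] by decide +kernel]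
      simp [ev]
    have hσw : σ (ev s w).1 = ev piVal w := by
      clear hw
      induction w with
      | nil => exact map_one σ
      | cons g t ih =>
        rw [ev, ev, Prod.fst_mul, map_mul, ih fun x hx => hwlt x (List.mem_cons_of_mem _ hx),
          hs7 g (hwlt g (List.mem_cons_self ..)), L.map_lx (hwlt g (List.mem_cons_self ..))]
    have hc : Commute (ev f w) (f 0) := by
      have : Commute (ev s w) (s 0) := by
        refine Prod.ext ?_ (mul_comm _ _)
        rw [hs7 0 (by norm_num)]
        show (ev s w).1 * lx y 0 = lx y 0 * (ev s w).1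
        rw [hx0]
        exact (L.commute_stab hw hσw).eq
      have h2 := this.map q
      rwa [ev_map] at h2
    rw [ev_append, ev_append, ev_append, ev_reverse _ hfsq]
    simp only [ev, one_mul]
    calc f 0 * ((ev f w)⁻¹ * (f 0 * ev f w)) = f 0 * ((ev f w)⁻¹ * (ev f w * f 0)) := by rw [hc.eq]
      _ = 1 := by rw [inv_mul_cancel_left, hfsq]
  have hbase : ∀ w ∈ baseWords, ev f w = 1 := by
    intro w hw
    have h := relWords_ok w hw
    simp only [relWordOk, Bool.or_eq_true, Bool.and_eq_true, List.any_eq_true, List.mem_range,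
      beq_iff_eq, List.isEmpty_iff] at h
    rcases h with (((h | ⟨i, -, rfl⟩) | ⟨i, hi, j, hj, h⟩) | ⟨rfl, h⟩) | ⟨rfl, h⟩
    · subst h; rfl
    · simpa [ev] using hfsq i
    · split at h
      · rename_i hw2
        subst hw2
        have hc : Commute (f i) (f j) := by
          have : Commute (s i) (s j) := by
            rw [hs7 i hi, hs7 j hj]
            exact Prod.ext (L.lx_commute hi hj h).eq (mul_comm _ _)
          exact this.map q
        calc ev f [i, j, i, j] = f j * f i * f j * f i := by simp [ev, mul_assoc]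
          _ = f j * f j * (f i * f i) := by rw [mul_assoc (f j) (f i) (f j), hc.eq]; simp [mul_assoc]
          _ = 1 := by rw [hfsq, hfsq, one_mul]
      · split at h
        · rename_i hw2
          subst hw2
          have hb : f i * f j * f i = f j * f i * f j := by
            show q (s i) * q (s j) * q (s i) = q (s j) * q (s i) * q (s j)
            rw [← map_mul, ← map_mul, ← map_mul, ← map_mul, hs7 i hi, hs7 j hj]
            congr 1
            exact Prod.ext (L.lx_braid hi hj h) (mul_right_comm _ _ _ |>.trans (mul_comm _ _) |>.trans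
              (mul_assoc _ _ _).symm)
          calc ev f [i, j, i, j, i, j] = f j * f i * f j * (f i * f j * f i) := by
                simp [ev, mul_assoc]
            _ = f j * f i * f j * (f j * f i * f j) := by rw [hb]
            _ = 1 := by simp only [mul_assoc]; simp [← mul_assoc, hfsq]
        · exact absurd h (by simp)
    · exact hext _ (by decide +kernel) h
    · exact hext _ (by decide +kernel) h
  set τ : P →* (E × Multiplicative ℤ) ⧸ Z := hom f hbase
    (fun g hg => by simp [hf, hs, if_neg (not_lt.2 hg)]) with hτ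
  set ι : E →* (E × Multiplicative ℤ) ⧸ Z := q.comp (MonoidHom.inl E (Multiplicative ℤ)) with hι
  have hinj : Function.Injective ι := by
    rw [injective_iff_map_eq_one]
    intro e he
    obtain ⟨k, hk⟩ : (e, (1 : Multiplicative ℤ)) ∈ Z := (QuotientGroup.eq_one_iff _).1 he
    have h2 := congrArg Prod.snd hk
    simp only [Prod.pow_snd, ← ofAdd_zsmul, ofAdd_eq_one, smul_eq_mul] at h2
    have hk0 : k = 0 := by omega
    subst hk0
    simpa using (congrArg Prod.fst hk).symm
  have hτGam : ∀ x : Gam, (τ.comp eps.ker.subtype) x ∈ ι.range := by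
    intro x
    have hx : x ∈ commutator Gam := commutator_gam.symm ▸ Subgroup.mem_top x
    have h1 : τ x.1 ∈ (commutator Gam).map (τ.comp eps.ker.subtype) := ⟨x, hx, rfl⟩
    refine (le_trans (b := ⁅(⊤ : Subgroup ((E × Multiplicative ℤ) ⧸ Z)), ⊤⁆) ?_ ?_ :
      (commutator Gam).map (τ.comp eps.ker.subtype) ≤ ι.range) h1
    · rw [commutator_def, Subgroup.map_commutator]
      exact Subgroup.commutator_mono le_top le_top
    · rw [← Subgroup.map_top_of_surjective q (QuotientGroup.mk'_surjective Z), ← Subgroup.map_commutator]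
      rintro _ ⟨u, hu, rfl⟩
      refine ⟨u.1, ?_⟩
      have hu2 : u.2 = 1 := by
        have h3 : (MonoidHom.snd E (Multiplicative ℤ)) u ∈
            (⁅(⊤ : Subgroup (E × Multiplicative ℤ)), (⊤ : Subgroup (E × Multiplicative ℤ))⁆).map (MonoidHom.snd E (Multiplicative ℤ)) :=
          ⟨u, hu, rfl⟩
        have h4 : (⁅(⊤ : Subgroup (E × Multiplicative ℤ)), (⊤ : Subgroup (E × Multiplicative ℤ))⁆).map (MonoidHom.snd E (Multiplicative ℤ))
            ≤ ⊥ := by
          rw [Subgroup.map_le_iff_le_comap]
          exact Subgroup.commutator_le.2 fun a _ b _ => by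
            rw [Subgroup.mem_comap, map_commutatorElement, Subgroup.mem_bot]
            exact commutatorElement_eq_one_iff_mul_comm.2 (mul_comm _ _)
        exact Subgroup.mem_bot.1 (h4 h3)
      show q (u.1, 1) = q u
      rw [← hu2]
  set θ : Gam →* E := (MonoidHom.ofInjective hinj).symm.toMonoidHom.comp
    ((τ.comp eps.ker.subtype).codRestrict ι.range hτGam) with hθdef
  have hθ : ∀ x : Gam, ι (θ x) = τ x.1 := fun x => by
    have := (MonoidHom.ofInjective hinj).apply_symm_apply ⟨τ x.1, hτGam x⟩
    exact congrArg Subtype.val this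
  set η : (E × Multiplicative ℤ) ⧸ Z →* G0 := QuotientGroup.lift Z (σ.comp (MonoidHom.fst E _))
    ((Subgroup.zpowers_le).2 (show σ (y 0 * y 0) = 1 by rw [map_mul, L.map, piVal_sq])) with hη
  have hητ : η.comp τ = pi := hom_ext fun g hg => by
    rw [MonoidHom.comp_apply, hτ, hom_pVal, pi_pVal]
    show σ (s g).1 = _
    rw [hs7 g hg, L.map_lx hg]
  have hcomp : σ.comp θ = proj := by
    ext x
    show σ (θ x) = pi x.1
    rw [← hητ]
    show σ (θ x) = η (τ x.1)
    rw [← hθ x]
    rfl
  refine ⟨θ, ?_, hcomp⟩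
  rw [← MonoidHom.range_eq_top, eq_top_iff, ← stem_perfect σ hσ, commutator_def, Subgroup.commutator_le]
  intro a _ b _
  obtain ⟨u, hu⟩ := proj_surjective (σ a)
  obtain ⟨v, hv⟩ := proj_surjective (σ b)
  have ha : σ a = σ (θ u) := by rw [← hu, ← hcomp]; rfl
  have hb : σ b = σ (θ v) := by rw [← hv, ← hcomp]; rfl
  refine ⟨⁅u, v⁆, ?_⟩
  rw [map_commutatorElement]
  obtain ⟨k, hk, rfl⟩ : ∃ k, σ k = 1 ∧ a = θ u * k :=
    ⟨(θ u)⁻¹ * a, by rw [map_mul, map_inv, ha, inv_mul_cancel], (mul_inv_cancel_left _ _).symm⟩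
  obtain ⟨l, hl, rfl⟩ : ∃ l, σ l = 1 ∧ b = θ v * l :=
    ⟨(θ v)⁻¹ * b, by rw [map_mul, map_inv, hb, inv_mul_cancel], (mul_inv_cancel_left _ _).symm⟩
  have hk' := L.comm_of_ker hk
  have hl' := L.comm_of_ker hl
  simp only [commutatorElement_def, mul_inv_rev]
  symm
  calc θ u * k * (θ v * l) * (k⁻¹ * (θ u)⁻¹) * (l⁻¹ * (θ v)⁻¹)
      = θ u * ((θ v * l) * k) * (k⁻¹ * (θ u)⁻¹) * (l⁻¹ * (θ v)⁻¹) := by
        rw [mul_assoc (θ u) k, (hk' _).eq]
    _ = θ u * θ v * (l * (θ u)⁻¹) * (l⁻¹ * (θ v)⁻¹) := by simp [mul_assoc]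
    _ = θ u * θ v * ((θ u)⁻¹ * l) * (l⁻¹ * (θ v)⁻¹) := by rw [(hl' _).eq]
    _ = θ u * θ v * (θ u)⁻¹ * (θ v)⁻¹ := by simp [mul_assoc]

theorem ker_image : ∃ π : A12 →* σ.ker, Function.Surjective π := by
  obtain ⟨θ, hθ, hcomp⟩ := exists_lift_hom σ hσ
  have hmem : ∀ x : proj.ker, θ x.1 ∈ σ.ker := fun x => by
    show σ.comp θ x.1 = 1
    rw [hcomp]; exact x.2
  refine ⟨((θ.comp proj.ker.subtype).codRestrict σ.ker hmem).comp
    (kequiv.trans projKer.symm).toMonoidHom, ?_⟩
  rintro ⟨e, he⟩
  obtain ⟨x, rfl⟩ := hθ e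
  have hx : x ∈ proj.ker := by
    show proj x = 1
    rw [← hcomp]
    exact he
  obtain ⟨a, ha⟩ := (kequiv.trans projKer.symm).surjective ⟨x, hx⟩
  refine ⟨a, Subtype.ext ?_⟩
  show θ ((kequiv.trans projKer.symm) a).1 = θ x
  rw [ha]

end stem

/-- the Schur multiplier over the model field -/
theorem hasSchurMultiplier_F4 : HasSchurMultiplier G0 A12 :=
  ⟨⟨Gam, inferInstance, inferInstance, proj, proj_isStem, ⟨(kequiv.trans projKer.symm).symm⟩⟩,
    fun _ _ _ σ hσ => ker_image σ hσ⟩

end Cfsg.Agent.H11.U62
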