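import Cfsg.Agent.H11.U62.Pres
import Cfsg.Prelude.Def_KGroupFacts

/-! The presented group has a central subgroup of type `3 x 2 x 2` below the unitary group: this gives
a stem extension. -/

set_option autoImplicit false
set_option maxRecDepth 8000
set_option maxHeartbeats 1000000

namespace Cfsg.Agent.H11.U62

open Cfsg.Agent.H16 Cfsg.Agent.H16.EnumData Cfsg.Agent.H16.CoxEnum

/-- index of a point image -/
noncomputable def sig (p : P) : Nat := (rho p ⟨0, L7.valid.pos⟩ : Fin L7.data.n)

theorem rho_ev : ∀ w : List Nat, rho (ev pVal w) = ev L7.valid.perm w := by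
  intro w
  rw [ev_map, show (fun g => rho (pVal g)) = L7.valid.perm from funext fun g => hom_pVal _ _ _ g]

theorem sig_ev (w : List Nat) (hw : w.all (fun g => Nat.ble (g + 1) 7) = true) :
    sig (ev pVal w) = L7.data.run w 0 := by
  rw [sig, rho_ev, L7.valid.perm_word w (fun g hg => ?_)]
  exact Nat.le_of_ble_eq_true (List.all_eq_true.mp hw g hg)

/-- even part of the kernel -/
def K0 : Subgroup P := pi.ker ⊓ eps.ker

instance : (K0).Normal := Subgroup.normal_inf_normal _ _

theorem odd_mem : ev pVal oddWord ∈ pi.ker ∧ eps (ev pVal oddWord) = Multiplicative.ofAdd 1 := by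
  refine ⟨?_, ?_⟩
  · rw [MonoidHom.mem_ker, pi_ev]
    exact eq_one_of_scalarW (by decide +kernel)
  · rw [ev_map, show (fun g => eps (pVal g)) = (fun g => if g < 7 then Multiplicative.ofAdd 1 else 1)
      from funext fun g => hom_pVal _ _ _ g]
    decide +kernel

theorem eps_cases : ∀ x : Multiplicative (ZMod 2), x = 1 ∨ x = Multiplicative.ofAdd 1 := by decide

theorem card_psu' : Nat.card (PSU 6 Cfsg.Agent.H16.F4 2) = 9196830720 := Herm.card_psu

theorem card_K0_le : Nat.card K0 ≤ 12 := by
  have h1 : Nat.card pi.ker * 9196830720 ≤ 24 * 9196830720 := by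
    have h := Subgroup.card_mul_index pi.ker
    rw [Subgroup.index_ker, MonoidHom.range_eq_top.2 pi_surjective, Subgroup.card_top, card_psu'] at h
    rw [h]
    exact finite_card_le.2
  have h2 : Nat.card pi.ker ≤ 24 := Nat.le_of_mul_le_mul_right h1 (by norm_num)
  set e : pi.ker →* Multiplicative (ZMod 2) := eps.comp pi.ker.subtype with he
  have hs : Function.Surjective e := by
    intro y
    rcases eps_cases y with rfl | rfl
    · exact ⟨1, map_one e⟩
    · exact ⟨⟨_, odd_mem.1⟩, odd_mem.2⟩
  have h3 := Subgroup.card_mul_index e.ker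
  rw [Subgroup.index_ker, MonoidHom.range_eq_top.2 hs, Subgroup.card_top,
    show Nat.card (Multiplicative (ZMod 2)) = 2 by simp] at h3
  have h4 : Nat.card K0 ≤ Nat.card e.ker := by
    refine Nat.card_le_card_of_injective (fun x => ⟨⟨x.1, x.2.1⟩, x.2.2⟩) ?_
    intro x y h
    exact Subtype.ext (congrArg (fun z : e.ker => ((z : pi.ker) : P)) h)
  refine h4.trans (Nat.le_of_mul_le_mul_right (c := 2) ?_ (by norm_num))
  rw [h3]
  exact h2

/-- the abstract kernel -/
abbrev A12 : Type := Multiplicative (ZMod 3 × ZMod 2 × ZMod 2)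

/-- word of an element of the abstract kernel -/
def kword (a : A12) : List Nat :=
  (List.replicate a.toAdd.1.val kerWord0).flatten ++
    (List.replicate a.toAdd.2.1.val kerWord1).flatten ++
      (List.replicate a.toAdd.2.2.val kerWord2).flatten

theorem kword_lt : ∀ a : A12, (kword a).all (fun g => Nat.ble (g + 1) 7) = true := by decide +kernel

theorem kword_mem (a : A12) : ev pVal (kword a) ∈ K0 := by
  have hk : ∀ w ∈ [kerWord0, kerWord1, kerWord2], ev pVal w ∈ K0 := by
    intro w hw
    refine ⟨?_, ?_⟩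
    · show ev pVal w ∈ pi.ker
      rw [MonoidHom.mem_ker, pi_ev]
      refine eq_one_of_scalarW ?_
      have h : [kerWord0, kerWord1, kerWord2].all scalarW = true := by decide +kernel
      exact List.all_eq_true.mp h w hw
    · show ev pVal w ∈ eps.ker
      rw [MonoidHom.mem_ker, ev_map, show (fun g => eps (pVal g)) =
        (fun g => if g < 7 then Multiplicative.ofAdd 1 else 1) from funext fun g => hom_pVal _ _ _ g]
      have h : ∀ w ∈ [kerWord0, kerWord1, kerWord2],
          ev (fun g => if g < 7 then Multiplicative.ofAdd (1 : ZMod 2) else 1) w = 1 := by decide +kernel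
      exact h w hw
  have hrep : ∀ (n : Nat) w, ev pVal w ∈ K0 → ev pVal (List.replicate n w).flatten ∈ K0 := by
    intro n w hw
    induction n with
    | zero => exact one_mem _
    | succ n ih => rw [List.replicate_succ, List.flatten_cons, ev_append]; exact mul_mem ih hw
  rw [kword, ev_append, ev_append]
  exact mul_mem (hrep _ _ (hk _ (by simp))) (mul_mem (hrep _ _ (hk _ (by simp))) (hrep _ _ (hk _ (by simp))))

/-- element of the kernel -/
def kel (a : A12) : K0 := ⟨ev pVal (kword a), kword_mem a⟩

theorem kel_sig_injective : ∀ a b : A12, L7.data.run (kword a) 0 = L7.data.run (kword b) 0 → a = b := by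
  decide +kernel

theorem kel_injective : Function.Injective kel := by
  intro a b h
  refine kel_sig_injective a b ?_
  rw [← sig_ev _ (kword_lt a), ← sig_ev _ (kword_lt b)]
  exact congrArg (fun x : K0 => sig x.1) h

theorem kel_bijective : Function.Bijective kel := by
  refine (Nat.bijective_iff_injective_and_card _).mpr ⟨kel_injective, ?_⟩
  have h1 := Nat.card_le_card_of_injective kel kel_injective
  have h2 := card_K0_le
  have h3 : Nat.card A12 = 12 := by simp [Nat.card_prod]
  omega

theorem sig_injOn {x y : P} (hx : x ∈ K0) (hy : y ∈ K0) (h : sig x = sig y) : x = y := by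
  obtain ⟨a, ha⟩ := kel_bijective.2 ⟨x, hx⟩
  obtain ⟨b, hb⟩ := kel_bijective.2 ⟨y, hy⟩
  rw [← show (kel a).1 = x from congrArg Subtype.val ha, ← show (kel b).1 = y from congrArg Subtype.val hb] at h ⊢
  rw [show sig (kel a).1 = L7.data.run (kword a) 0 from sig_ev _ (kword_lt a),
    show sig (kel b).1 = L7.data.run (kword b) 0 from sig_ev _ (kword_lt b)] at h
  rw [kel_sig_injective a b h]

theorem kword_mul : ∀ a b : A12,
    L7.data.run (kword (a * b)) 0 = L7.data.run (kword b ++ kword a) 0 := by
  decide +kernel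

theorem kel_mul (a b : A12) : kel (a * b) = kel a * kel b := by
  refine Subtype.ext (sig_injOn (kel _).2 (kel a * kel b).2 ?_)
  show sig (ev pVal (kword (a * b))) = sig (ev pVal (kword a) * ev pVal (kword b))
  rw [← ev_append, sig_ev _ (kword_lt _), sig_ev _ (by simp [List.all_append, kword_lt]), kword_mul]

/-- the even kernel is of type `3 x 2 x 2` -/
noncomputable def kequiv : A12 ≃* K0 :=
  MulEquiv.ofBijective (MonoidHom.mk' kel kel_mul) kel_bijective

theorem kword_conj : ∀ (g : Fin 7) (a : A12),
    L7.data.run ([(g : Nat)] ++ kword a ++ [(g : Nat)]) 0 = L7.data.run (kword a) 0 := by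
  decide +kernel

theorem K0_central : K0 ≤ Subgroup.center P := by
  intro x hx
  rw [Subgroup.mem_center_iff]
  intro y
  suffices h : Subgroup.closure (Set.range pVal) ≤ Subgroup.centralizer {x} by
    rw [pVal_generates] at h
    exact (Subgroup.mem_centralizer_singleton_iff.mp (h (Subgroup.mem_top y)))
  rw [Subgroup.closure_le]
  rintro _ ⟨g, rfl⟩
  rw [SetLike.mem_coe, Subgroup.mem_centralizer_singleton_iff]
  by_cases hg : g < 7
  · obtain ⟨a, ha⟩ := kel_bijective.2 ⟨x, hx⟩
    obtain rfl : ev pVal (kword a) = x := congrArg Subtype.val ha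
    have hconj : pVal g * ev pVal (kword a) * pVal g = ev pVal (kword a) := by
      have hmem : pVal g * ev pVal (kword a) * pVal g ∈ K0 := by
        have h := (inferInstance : K0.Normal).conj_mem _ hx (pVal g)
        rwa [inv_eq_of_mul_eq_one_right (pVal_sq g)] at h
      refine sig_injOn hmem hx ?_
      rw [show pVal g * ev pVal (kword a) * pVal g = ev pVal ([g] ++ kword a ++ [g]) by
        rw [ev_append, ev_append]; simp [ev, mul_assoc],
        sig_ev _ (by simp [List.all_append, kword_lt, Nat.ble_eq]; omega), sig_ev _ (kword_lt a)]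
      exact kword_conj ⟨g, hg⟩ a
    calc pVal g * ev pVal (kword a) = pVal g * ev pVal (kword a) * pVal g * pVal g := by
          rw [mul_assoc _ (pVal g) (pVal g), pVal_sq, mul_one]
      _ = ev pVal (kword a) * pVal g := by rw [hconj]
  · rw [pVal_outside (by omega), one_mul, mul_one]

/-- the perfect cover -/
abbrev Gam : Type := ↥(eps.ker)

/-- its projection -/
def proj : Gam →* PSU 6 Cfsg.Agent.H16.F4 2 := pi.comp eps.ker.subtype

theorem proj_surjective : Function.Surjective proj := by
  intro y
  obtain ⟨p, rfl⟩ := pi_surjective y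
  rcases eps_cases (eps p) with h | h
  · exact ⟨⟨p, h⟩, rfl⟩
  · refine ⟨⟨p * ev pVal oddWord, ?_⟩, ?_⟩
    · rw [MonoidHom.mem_ker, map_mul, h, odd_mem.2]; decide
    · show pi (p * ev pVal oddWord) = pi p
      rw [map_mul, MonoidHom.mem_ker.mp odd_mem.1, mul_one]

/-- the kernel of the projection -/
def projKer : proj.ker ≃* K0 where
  toFun x := ⟨x.1.1, x.2, x.1.2⟩
  invFun x := ⟨⟨x.1, x.2.2⟩, x.2.1⟩
  left_inv _ := rfl
  right_inv _ := rfl
  map_mul' _ _ := rfl

theorem proj_ker_central : proj.ker ≤ Subgroup.center Gam := fun x hx =>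
  Subgroup.mem_center_iff.2 fun y =>
    Subtype.ext (Subgroup.mem_center_iff.1 (K0_central ⟨hx, x.2⟩) y.1)

theorem commutator_psu : commutator (PSU 6 Cfsg.Agent.H16.F4 2) = ⊤ := by
  have hsimp : IsSimpleGroup (PSU 6 Cfsg.Agent.H16.F4 2) :=
    H3.isSimpleGroup_PSU Herm.hF (by norm_num) (by norm_num)
  rcases hsimp.eq_bot_or_eq_top_of_normal (commutator _) inferInstance with h | h
  · exfalso
    rw [commutator_def, Subgroup.commutator_eq_bot_iff_le_centralizer] at h
    have hc : Subgroup.center (PSU 6 Cfsg.Agent.H16.F4 2) = ⊤ := eq_top_iff.2 fun x _ =>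
      Subgroup.mem_center_iff.2 fun y => Subgroup.mem_centralizer_iff.1 (h (Subgroup.mem_top x)) y trivial
    let _ : CommGroup (PSU 6 Cfsg.Agent.H16.F4 2) := Group.commGroupOfCenterEqTop hc
    have hp := IsSimpleGroup.prime_card (α := PSU 6 Cfsg.Agent.H16.F4 2)
    rw [card_psu'] at hp
    exact absurd hp (by norm_num)
  · exact h

/-- edges of a spanning tree -/
def treeEdges : List (Nat × Nat) := [(0, 1), (0, 2), (0, 4), (2, 3), (1, 5), (5, 6)]

theorem commutator_gam : commutator Gam = ⊤ := by
  set N : Subgroup P := ⁅eps.ker, eps.ker⁆ with hN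
  have hNle : N ≤ eps.ker := Subgroup.commutator_le_left _ _
  set q : P →* P ⧸ N := QuotientGroup.mk' N with hq
  have himg : N.map pi = ⊤ := by
    rw [hN, Subgroup.map_commutator, show eps.ker.map pi = ⊤ from eq_top_iff.2 fun y _ => by
      obtain ⟨x, rfl⟩ := proj_surjective y
      exact ⟨x.1, x.2, rfl⟩]
    exact commutator_psu
  have hcen : ∀ x ∈ eps.ker, ∀ y, Commute (q y) (q x) := by
    intro x hx y
    obtain ⟨n, hn, hnx⟩ := (himg.symm ▸ Subgroup.mem_top (pi x) : pi x ∈ N.map pi)
    have hk : n⁻¹ * x ∈ K0 := ⟨by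
      show n⁻¹ * x ∈ pi.ker
      rw [MonoidHom.mem_ker, map_mul, map_inv, hnx, inv_mul_cancel],
      show n⁻¹ * x ∈ eps.ker from mul_mem (inv_mem (hNle hn)) hx⟩
    have e : q x = q (n⁻¹ * x) := by
      rw [map_mul, map_inv, show q n = 1 from (QuotientGroup.eq_one_iff _).2 hn, inv_one, one_mul]
    rw [e]
    exact Commute.map (Subgroup.mem_center_iff.1 (K0_central hk) y) q
  have hedge : ∀ i j, (i, j) ∈ treeEdges → q (pVal i) = q (pVal j) := by
    intro i j hij
    have hb : i < 7 ∧ j < 7 ∧ [i, j, i, j, i, j] ∈ baseWords := by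
      have h : ∀ e ∈ treeEdges, e.1 < 7 ∧ e.2 < 7 ∧ [e.1, e.2, e.1, e.2, e.1, e.2] ∈ baseWords := by
        decide +kernel
      exact h _ hij
    set a := q (pVal i) with ha
    set b := q (pVal j) with hb'
    have haa : a * a = 1 := by rw [ha, ← map_mul, pVal_sq, map_one]
    have hbb : b * b = 1 := by rw [hb', ← map_mul, pVal_sq, map_one]
    have hu : Commute a (a * b) := by
      have h := hcen (pVal i * pVal j) (by
        rw [MonoidHom.mem_ker, map_mul, eps_pVal hb.1, eps_pVal hb.2.1]; decide) (pVal i)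
      rwa [map_mul] at h
    have hba : b * a = a * b := by
      have h := hu.eq
      calc b * a = (a * a) * (b * a) := by rw [haa, one_mul]
        _ = a * (a * b) * a := by simp [mul_assoc]
        _ = a * b * (a * a) := by rw [h]; simp [mul_assoc]
        _ = a * b := by rw [haa, mul_one]
    have h6 : b * a * (b * a) * (b * a) = 1 := by
      have h := congrArg q (pVal_base hb.2.2)
      simpa [ev, mul_assoc, ← ha, ← hb'] using h
    have h2 : b * a * (b * a) = 1 := by
      calc b * a * (b * a) = b * a * (a * b) := by rw [hba]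
        _ = b * (a * a) * b := by simp [mul_assoc]
        _ = 1 := by rw [haa, mul_one, hbb]
    rw [h2, one_mul] at h6
    calc a = (b * b) * a := by rw [hbb, one_mul]
      _ = b * (b * a) := mul_assoc ..
      _ = b := by rw [h6, mul_one]
  have hall : ∀ g, g < 7 → q (pVal g) = q (pVal 0) := by
    intro g hg
    interval_cases g
    · rfl
    · exact (hedge 0 1 (by decide)).symm
    · exact (hedge 0 2 (by decide)).symm
    · exact (hedge 2 3 (by decide)).symm.trans (hedge 0 2 (by decide)).symm
    · exact (hedge 0 4 (by decide)).symm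
    · exact (hedge 1 5 (by decide)).symm.trans (hedge 0 1 (by decide)).symm
    · exact (hedge 5 6 (by decide)).symm.trans
        ((hedge 1 5 (by decide)).symm.trans (hedge 0 1 (by decide)).symm)
  set t : Multiplicative (ZMod 2) × (P ⧸ N) := (Multiplicative.ofAdd 1, q (pVal 0)) with ht
  have ht2 : t * t = 1 := by
    refine Prod.ext ?_ ?_
    · show Multiplicative.ofAdd (1 : ZMod 2) * Multiplicative.ofAdd 1 = 1
      decide
    · show q (pVal 0) * q (pVal 0) = 1
      rw [← map_mul, pVal_sq, map_one]
  have hrange : (eps.prod q).range ≤ Subgroup.zpowers t := by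
    rw [MonoidHom.range_eq_map, ← pVal_generates, MonoidHom.map_closure, Subgroup.closure_le]
    rintro _ ⟨_, ⟨g, rfl⟩, rfl⟩
    by_cases hg : g < 7
    · rw [MonoidHom.prod_apply, eps_pVal hg, hall g hg]
      exact Subgroup.mem_zpowers t
    · rw [pVal_outside (by omega), map_one]
      exact one_mem _
  rw [eq_top_iff]
  intro x _
  obtain ⟨k, hk⟩ := hrange ⟨x.1, rfl⟩
  have hqx : q x.1 = 1 := by
    rcases Int.even_or_odd k with ⟨m, rfl⟩ | ⟨m, rfl⟩
    · have h : t ^ (m + m) = 1 := by rw [zpow_add, ← (Commute.refl t).mul_zpow, ht2, one_zpow]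
      have hk2 : (1 : Multiplicative (ZMod 2) × (P ⧸ N)) = (eps.prod q) x.1 := h.symm.trans hk
      exact (congrArg Prod.snd hk2).symm
    · have h : t ^ (2 * m + 1) = t := by
        rw [zpow_add, zpow_one, zpow_mul, zpow_two, ht2, one_zpow, one_mul]
      have hk2 : t = (eps.prod q) x.1 := h.symm.trans hk
      have h3 := congrArg Prod.fst hk2
      rw [MonoidHom.prod_apply, MonoidHom.mem_ker.mp x.2] at h3
      exact absurd h3 (by simp only [ht]; decide)
  have hxN : x.1 ∈ N := (QuotientGroup.eq_one_iff _).1 hqx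
  have hmap : (commutator Gam).map eps.ker.subtype = N := by
    rw [commutator_def, Subgroup.map_commutator, ← MonoidHom.range_eq_map, Subgroup.range_subtype]
  rw [← hmap] at hxN
  obtain ⟨y, hy, hyx⟩ := hxN
  rwa [← Subtype.ext hyx]

theorem proj_isStem : IsStemExtension proj :=
  ⟨proj_surjective, proj_ker_central, commutator_gam.symm ▸ le_top⟩

end Cfsg.Agent.H11.U62
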