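import Cfsg.Prelude.Def_Classical

/-! Isomorphic fields give isomorphic projective special unitary groups. -/

set_option autoImplicit false

namespace Cfsg.Agent.H11.U62

open Matrix

variable {F : Type*} [Field F] {K : Type*} [Field K]

/-- the special linear groups over isomorphic fields -/
def slEquiv (n : ℕ) (e : F ≃+* K) :
    SpecialLinearGroup (Fin n) F ≃* SpecialLinearGroup (Fin n) K where
  toFun g := SpecialLinearGroup.map e.toRingHom g
  invFun g := SpecialLinearGroup.map e.symm.toRingHom g
  left_inv g := Subtype.ext (Matrix.ext fun i j => e.symm_apply_apply _)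
  right_inv g := Subtype.ext (Matrix.ext fun i j => e.apply_symm_apply _)
  map_mul' := map_mul _

theorem slEquiv_mem {n q : ℕ} (e : F ≃+* K) {g : SpecialLinearGroup (Fin n) F} (hg : g ∈ SU n F q) :
    slEquiv n e g ∈ SU n K q := by
  intro u v
  have h := congrArg e (hg (e.symm ∘ u) (e.symm ∘ v))
  have hmv : ∀ w : Fin n → K, ∀ i,
      ((slToMat n K) (slEquiv n e g) *ᵥ w) i = e (((slToMat n F) g *ᵥ (e.symm ∘ w)) i) := by
    intro w i
    simp [Matrix.mulVec, dotProduct, slEquiv, map_sum]
  simp only [hermForm, map_sum, map_mul, map_pow, Function.comp_apply, e.apply_symm_apply] at h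
  simp only [hermForm, hmv]
  exact h

/-- the special unitary groups over isomorphic fields -/
def suEquiv (n q : ℕ) (e : F ≃+* K) : SU n F q ≃* SU n K q where
  toFun g := ⟨slEquiv n e g.1, slEquiv_mem e g.2⟩
  invFun g := ⟨slEquiv n e.symm g.1, slEquiv_mem e.symm g.2⟩
  left_inv g := Subtype.ext ((slEquiv n e).left_inv g.1)
  right_inv g := Subtype.ext ((slEquiv n e).right_inv g.1)
  map_mul' g h := Subtype.ext (map_mul (slEquiv n e) g.1 h.1)

theorem center_map {A B : Type*} [Group A] [Group B] (e : A ≃* B) :
    (Subgroup.center A).map (e : A →* B) = Subgroup.center B := by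
  ext x
  simp only [Subgroup.mem_map, Subgroup.mem_center_iff, MonoidHom.coe_coe]
  constructor
  · rintro ⟨a, ha, rfl⟩ b
    obtain ⟨c, rfl⟩ := e.surjective b
    rw [← map_mul, ← map_mul, ha]
  · intro hx
    refine ⟨e.symm x, fun a => e.injective ?_, e.apply_symm_apply x⟩
    rw [map_mul, map_mul, e.apply_symm_apply, hx]

/-- the projective special unitary groups over isomorphic fields -/
def psuEquiv (n q : ℕ) (e : F ≃+* K) : PSU n F q ≃* PSU n K q :=
  QuotientGroup.congr _ _ (suEquiv n q e) (center_map _)

end Cfsg.Agent.H11.U62
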