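import Cfsg.Agent.H11.U62.L7Data

/-! Kernel checks of facts 24000 to 36965: L7, subgroup . -/

set_option autoImplicit false

namespace Cfsg.Agent.H11.U62.L7

open Cfsg.Agent.H16

open EnumData

theorem facts_24000 : allFrom (fun i => data.checkFact i) 2000 24000 = true := by decide +kernel

theorem facts_26000 : allFrom (fun i => data.checkFact i) 2000 26000 = true := by decide +kernel

theorem facts_28000 : allFrom (fun i => data.checkFact i) 2000 28000 = true := by decide +kernel

theorem facts_30000 : allFrom (fun i => data.checkFact i) 2000 30000 = true := by decide +kernel

theorem facts_32000 : allFrom (fun i => data.checkFact i) 2000 32000 = true := by decide +kernel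

theorem facts_34000 : allFrom (fun i => data.checkFact i) 2000 34000 = true := by decide +kernel

theorem facts_36000 : allFrom (fun i => data.checkFact i) 965 36000 = true := by decide +kernel

end Cfsg.Agent.H11.U62.L7
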