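import Cfsg.Agent.H11.U62.L7Data
import Cfsg.Agent.H11.U62.L7Facts0
import Cfsg.Agent.H11.U62.L7Facts1

/-! Kernel checks of the certificate: L7, subgroup . -/

set_option autoImplicit false

namespace Cfsg.Agent.H11.U62.L7

open Cfsg.Agent.H16

open EnumData

theorem rows_0 : allFrom (fun i => data.checkRow i) 1000 0 = true := by decide +kernel

theorem rows_1 : allFrom (fun i => data.checkRow i) 1000 1000 = true := by decide +kernel

theorem rows_2 : allFrom (fun i => data.checkRow i) 1000 2000 = true := by decide +kernel

theorem rows_3 : allFrom (fun i => data.checkRow i) 1000 3000 = true := by decide +kernel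

theorem rows_4 : allFrom (fun i => data.checkRow i) 1000 4000 = true := by decide +kernel

theorem rows_5 : allFrom (fun i => data.checkRow i) 1000 5000 = true := by decide +kernel

theorem rows_6 : allFrom (fun i => data.checkRow i) 1000 6000 = true := by decide +kernel

theorem rows_7 : allFrom (fun i => data.checkRow i) 1000 7000 = true := by decide +kernel

theorem rows_8 : allFrom (fun i => data.checkRow i) 64 8000 = true := by decide +kernel

theorem base_check : data.checkBase = true := by decide +kernel

/-- The certificate is valid. -/
theorem valid : data.Valid where
  facts_ok :=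
    (allFrom_extend (allFrom_extend (allFrom_extend (allFrom_extend (allFrom_extend (allFrom_extend (allFrom_extend (allFrom_extend (allFrom_extend (allFrom_extend (allFrom_extend (allFrom_extend (allFrom_extend (allFrom_extend (allFrom_extend (allFrom_extend (allFrom_extend (allFrom_extend (allFrom_extend allFrom_nil
    facts_0)
    facts_2000)
    facts_4000)
    facts_6000)
    facts_8000)
    facts_10000)
    facts_12000)
    facts_14000)
    facts_16000)
    facts_18000)
    facts_20000)
    facts_22000)
    facts_24000)
    facts_26000)
    facts_28000)
    facts_30000)
    facts_32000)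
    facts_34000)
    facts_36000)
  rows_ok :=
    (allFrom_extend (allFrom_extend (allFrom_extend (allFrom_extend (allFrom_extend (allFrom_extend (allFrom_extend (allFrom_extend (allFrom_extend allFrom_nil
    rows_0)
    rows_1)
    rows_2)
    rows_3)
    rows_4)
    rows_5)
    rows_6)
    rows_7)
    rows_8)
  base_ok := base_check

end Cfsg.Agent.H11.U62.L7
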