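import Cfsg.Agent.H11.U62.RepTables

/-! Seven transvections generate the unitary group of dimension six over four elements; words in them
are evaluated on vector codes. -/

set_option autoImplicit false
set_option maxRecDepth 8000
set_option maxHeartbeats 1000000

namespace Cfsg.Agent.H11.U62

open Cfsg.Agent.H16 Cfsg.Agent.H16.EnumData Matrix

theorem step_spec {g c : Nat} (hg : g < 7) (hc : c < 4096) :
    stepC g c < 4096 ∧ Herm.dec (stepC g c) = Herm.tmap (cen g) (Herm.dec c) := by
  have h : stepOk g c = true := by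
    interval_cases g
    · exact allFrom_spec step_ok0 c (Nat.zero_le c) (by omega)
    · exact allFrom_spec step_ok1 c (Nat.zero_le c) (by omega)
    · exact allFrom_spec step_ok2 c (Nat.zero_le c) (by omega)
    · exact allFrom_spec step_ok3 c (Nat.zero_le c) (by omega)
    · exact allFrom_spec step_ok4 c (Nat.zero_le c) (by omega)
    · exact allFrom_spec step_ok5 c (Nat.zero_le c) (by omega)
    · exact allFrom_spec step_ok6 c (Nat.zero_le c) (by omega)
  rw [stepOk, forceNat_eq, Bool.and_eq_true, decide_eq_true_iff] at h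
  exact ⟨Nat.le_of_ble_eq_true h.1, funext h.2⟩

theorem suVal_mulVec {g c : Nat} (hg : g < 7) (hc : c < 4096) :
    ((suVal g).1 : Matrix (Fin 6) (Fin 6) F4) *ᵥ Herm.dec c = Herm.dec (stepC g c) := by
  rw [(step_spec hg hc).2, suVal, dif_pos hg]
  exact Herm.tmap_eq _ _

/-- a word acting on a code -/
noncomputable def runC (w : List Nat) : Nat → Nat :=
  List.rec (motive := fun _ => Nat → Nat) (fun c => c)
    (fun g _ ih c => forceNat c fun c => ih (stepC g c)) w

theorem runC_cons (g : Nat) (w : List Nat) (c : Nat) : runC (g :: w) c = runC w (stepC g c) :=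
  forceNat_eq c fun c => runC w (stepC g c)

theorem runC_spec : ∀ (w : List Nat), (∀ g ∈ w, g < 7) → ∀ c, c < 4096 →
    ((ev suVal w).1 : Matrix (Fin 6) (Fin 6) F4) *ᵥ Herm.dec c = Herm.dec (runC w c) := by
  intro w
  induction w with
  | nil =>
    intro _ c _
    show ((1 : SU 6 F4 2).1 : Matrix (Fin 6) (Fin 6) F4) *ᵥ Herm.dec c = _
    simp only [OneMemClass.coe_one, Matrix.SpecialLinearGroup.coe_one, Matrix.one_mulVec]
    rfl
  | cons g w ih =>
    intro hw c hc
    have hg := hw g (List.mem_cons_self ..)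
    rw [ev, H3.SU_mul_val, ← Matrix.mulVec_mulVec, suVal_mulVec hg hc,
      ih (fun x hx => hw x (List.mem_cons_of_mem _ hx)) _ (step_spec hg hc).1, runC_cons]

theorem ev_map {G H : Type*} [Group G] [Group H] (f : G →* H) (s : Nat → G) :
    ∀ w : List Nat, f (ev s w) = ev (fun g => f (s g)) w
  | [] => map_one f
  | g :: w => by rw [ev, ev, map_mul, ev_map f s w]

/-- does a word act as a scalar -/
noncomputable def scalarW (w : List Nat) : Bool :=
  w.all (fun g => Nat.ble (g + 1) 7) &&
    forceNat (runC w 1) fun r => Nat.ble 1 r && Nat.ble r 3 &&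
      allFrom (fun j => Nat.beq (runC w (Nat.pow 4 j)) (Nat.mul r (Nat.pow 4 j))) 6 0

theorem dec_smul_single : ∀ (r : Fin 4) (j i : Fin 6),
    Herm.dec ((r : Nat) * 4 ^ (j : Nat)) i = F4.fromNat r * (if i = j then 1 else 0) := by
  decide +kernel

theorem dec_one_mul (j : Fin 6) : Herm.dec (4 ^ (j : Nat)) = Pi.single j 1 := by
  funext i
  have h := dec_smul_single 1 j i
  rw [show ((1 : Fin 4) : Nat) = 1 from rfl, one_mul, show F4.fromNat 1 = 1 from rfl, one_mul] at h
  rw [h, Pi.single_apply]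

theorem eq_one_of_scalarW {w : List Nat} (h : scalarW w = true) : ev piVal w = 1 := by
  simp only [scalarW, forceNat_eq, Bool.and_eq_true] at h
  obtain ⟨hw, ⟨h1, h3⟩, hall⟩ := h
  have hr : runC w 1 < 4 := Nat.lt_succ_of_le (Nat.le_of_ble_eq_true h3)
  have hw' : ∀ g ∈ w, g < 7 := fun g hg =>
    Nat.le_of_ble_eq_true (List.all_eq_true.mp hw g hg)
  rw [show ev piVal w = QuotientGroup.mk' (Subgroup.center (SU 6 F4 2)) (ev suVal w) from
    (ev_map _ suVal w).symm]
  refine (QuotientGroup.eq_one_iff _).2 ((H3.mem_center_SU_iff Herm.hF (by norm_num) _).2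
    ⟨F4.fromNat (runC w 1), fun x => ?_⟩)
  have hM : ((ev suVal w).1 : Matrix (Fin 6) (Fin 6) F4) =
      F4.fromNat (runC w 1) • (1 : Matrix (Fin 6) (Fin 6) F4) := by
    refine Matrix.ext_of_mulVec_single fun j => ?_
    have hj : (4 : Nat) ^ (j : Nat) < 4096 :=
      lt_of_lt_of_eq (Nat.pow_lt_pow_right (by norm_num) j.2) (by norm_num)
    have hrun : runC w (4 ^ (j : Nat)) = runC w 1 * 4 ^ (j : Nat) :=
      Nat.eq_of_beq_eq_true (allFrom_spec hall j (Nat.zero_le _) (by omega))
    rw [← dec_one_mul j, runC_spec w hw' _ hj, hrun, Matrix.smul_mulVec, Matrix.one_mulVec,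
      dec_one_mul]
    funext i
    rw [show runC w 1 = ((⟨runC w 1, hr⟩ : Fin 4) : Nat) from rfl, dec_smul_single, Pi.smul_apply,
      Pi.single_apply, smul_eq_mul]
  rw [hM, Matrix.smul_mulVec, Matrix.one_mulVec]

theorem piVal_sq (g : Nat) : piVal g * piVal g = 1 := by
  by_cases hg : g < 7
  · have h : ∀ g : Fin 7, scalarW [(g : Nat), (g : Nat)] = true := by decide +kernel
    have h2 := eq_one_of_scalarW (h ⟨g, hg⟩)
    simpa [ev] using h2
  · rw [piVal, suVal, dif_neg hg, map_one, one_mul]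

/-- orbit point -/
noncomputable def orb (n : Nat) : Nat := orbArr.get 12 n

/-- check of one orbit point -/
noncomputable def orbOk (n : Nat) : Bool :=
  forceNat (orb n) fun c => Nat.ble (c + 1) 4096 &&
    decide (Herm.herm6 (Herm.dec c) (Herm.dec c) = 0) &&
    ((Nat.beq n 0 && decide (∀ j : Fin 6, Herm.dec c j = cen 0 j)) ||
      (forceNat (orbPar.get 10 n) fun p => forceNat (orbGen.get 4 n) fun k =>
        Nat.ble (p + 1) n && Nat.ble (k + 1) 7 && Nat.beq (stepC k (orb p)) c))

theorem orb_ok : allFrom orbOk 693 0 = true := by decide +kernel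

theorem orb_lt {n : Nat} (hn : n < 693) : orb n < 4096 := by
  have h := allFrom_spec orb_ok n (Nat.zero_le n) (by omega)
  simp only [orbOk, forceNat_eq, Bool.and_eq_true] at h
  exact Nat.le_of_ble_eq_true h.1.1

theorem orb_iso {n : Nat} (hn : n < 693) :
    hermForm 6 F4 2 (Herm.dec (orb n)) (Herm.dec (orb n)) = 0 := by
  have h := allFrom_spec orb_ok n (Nat.zero_le n) (by omega)
  simp only [orbOk, forceNat_eq, Bool.and_eq_true, decide_eq_true_iff] at h
  rw [Herm.hermForm_eq]
  exact h.1.2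

/-- the subgroup generated by the seven transvections -/
def suGenerated : Subgroup (SU 6 F4 2) := Subgroup.closure (Set.range suVal)

theorem orb_mem : ∀ n, (hn : n < 693) →
    H3.suTrans Herm.hF (Herm.dec (orb n)) 1 (orb_iso hn) Herm.one_trace ∈ suGenerated := by
  intro n
  induction n using Nat.strong_induction_on with
  | _ n ih =>
    intro hn
    have h := allFrom_spec orb_ok n (Nat.zero_le n) (by omega)
    simp only [orbOk, forceNat_eq, Bool.and_eq_true, Bool.or_eq_true, decide_eq_true_iff] at h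
    rcases h.2 with ⟨-, h2⟩ | ⟨⟨h3, h4⟩, h5⟩
    · rw [Herm.suTrans_congr (funext h2) (orb_iso hn) (cen_iso 0)]
      exact Subgroup.subset_closure ⟨0, dif_pos (by norm_num)⟩
    · have hp : orbPar.get 10 n < n := Nat.le_of_ble_eq_true h3
      have hk : orbGen.get 4 n < 7 := Nat.le_of_ble_eq_true h4
      have hp' : orbPar.get 10 n < 693 := hp.trans hn
      obtain ⟨hw, hconj⟩ := Herm.conj_suTrans (suVal (orbGen.get 4 n)) (orb_iso hp')
      have e : ((suVal (orbGen.get 4 n)).1 : Matrix (Fin 6) (Fin 6) F4) *ᵥ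
          Herm.dec (orb (orbPar.get 10 n)) = Herm.dec (orb n) := by
        rw [suVal_mulVec hk (orb_lt hp'), Nat.eq_of_beq_eq_true h5]
      have hg : suVal (orbGen.get 4 n) ∈ suGenerated := Subgroup.subset_closure ⟨_, rfl⟩
      have hmem := mul_mem (mul_mem hg (ih _ hp hp')) (inv_mem hg)
      rw [hconj, Herm.suTrans_congr e hw (orb_iso hn)] at hmem
      exact hmem

/-- check of one code -/
noncomputable def idxOk (c : Nat) : Bool :=
  forceNat (orbIdx.get 12 c) fun m =>
    !decide (Herm.herm6 (Herm.dec c) (Herm.dec c) = 0) ||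
      decide (∀ j : Fin 6, Herm.dec c j = 0) ||
      (Nat.ble (m / 4 + 1) 693 &&
        decide (∀ j : Fin 6, Herm.dec c j = F4.fromNat (m % 4) * Herm.dec (orb (m / 4)) j))

theorem idx_ok : allFrom idxOk 4096 0 = true := by decide +kernel

theorem suGenerated_eq_top : suGenerated = ⊤ := by
  rw [eq_top_iff, ← H3.su_closure_eq_top Herm.hF (by norm_num) (by norm_num), Subgroup.closure_le]
  rintro A ⟨v, c, hv, hA⟩
  have h1 : A = 1 → A ∈ suGenerated := fun e => e ▸ one_mem _
  by_cases hv0 : v = 0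
  · refine h1 (Herm.su_ext fun x => ?_)
    rw [show (A.1.1 : Matrix (Fin 6) (Fin 6) F4) = _ from hA, H3.unitaryTransvection_mulVec, hv0]
    simp
  have hc : c + c ^ 2 = 0 := H3.trace_zero_of_transvection_preserves Herm.hF hv0 hv fun x y => by
    rw [← hA]; exact H3.mem_SU_iff.1 A.2 x y
  have hc' : ∀ c : F4, c + c ^ 2 = 0 → c = 0 ∨ c = 1 := by decide
  rcases hc' c hc with rfl | rfl
  · refine h1 (Herm.su_ext fun x => ?_)
    rw [show (A.1.1 : Matrix (Fin 6) (Fin 6) F4) = _ from hA, H3.unitaryTransvection_mulVec]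
    simp
  obtain ⟨b, hb, rfl⟩ := Herm.dec_surj v
  have h2 := allFrom_spec idx_ok b (Nat.zero_le b) (by omega)
  rw [Herm.hermForm_eq] at hv
  simp only [idxOk, forceNat_eq, Bool.or_eq_true, Bool.not_eq_true', decide_eq_false_iff_not,
    decide_eq_true_iff, Bool.and_eq_true, hv, not_true_eq_false, false_or] at h2
  rcases h2 with h2 | ⟨h2, h3⟩
  · exact absurd (funext h2) hv0
  have hn : orbIdx.get 12 b / 4 < 693 := Nat.le_of_ble_eq_true h2
  have e : Herm.dec b = F4.fromNat (orbIdx.get 12 b % 4) • Herm.dec (orb (orbIdx.get 12 b / 4)) :=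
    funext fun j => h3 j
  have hs : F4.fromNat (orbIdx.get 12 b % 4) ≠ 0 := fun he => hv0 (by rw [e, he, zero_smul])
  rw [e, Herm.smul_trans hs] at hA
  have eA : A = H3.suTrans Herm.hF (Herm.dec (orb (orbIdx.get 12 b / 4))) 1 (orb_iso hn)
      Herm.one_trace := H3.SU_ext hA
  rw [eA]
  exact orb_mem _ hn

theorem piVal_generates : Subgroup.closure (Set.range piVal) = ⊤ := by
  rw [show Set.range piVal = QuotientGroup.mk' (Subgroup.center (SU 6 F4 2)) '' Set.range suVal from
    Set.range_comp _ suVal, ← MonoidHom.map_closure]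
  show suGenerated.map _ = ⊤
  rw [suGenerated_eq_top, Subgroup.map_top_of_surjective _ (QuotientGroup.mk'_surjective _)]

end Cfsg.Agent.H11.U62
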