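import Cfsg.Agent.H16.CosetTower
import Cfsg.Agent.H11.U62.L4Check
import Cfsg.Agent.H11.U62.L5Check
import Cfsg.Agent.H11.U62.L6Check
import Cfsg.Agent.H11.U62.L7Check
import Cfsg.Agent.H11.U62.Rep

/-! A presentation of a group mapping onto the unitary group of dimension six over four elements,
and the bound on its order from coset enumerations along a tower. -/

set_option autoImplicit false
set_option maxRecDepth 8000
set_option maxHeartbeats 1000000

namespace Cfsg.Agent.H11.U62

open Cfsg.Agent.H16 Cfsg.Agent.H16.EnumData Cfsg.Agent.H16.CoxEnum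

/-- relator words -/
def baseWords : List (List Nat) := L7.data.words.take 31

/-- generators of the free group -/
def fgen (g : Nat) : FreeGroup (Fin 7) := if h : g < 7 then FreeGroup.of ⟨g, h⟩ else 1

/-- the relators -/
def rels : Set (FreeGroup (Fin 7)) := {r | ∃ w ∈ baseWords, r = ev fgen w}

/-- the presented group -/
abbrev P : Type := PresentedGroup rels

/-- generators of the presented group -/
def pVal (g : Nat) : P := PresentedGroup.mk rels (fgen g)

theorem pVal_outside {g : Nat} (hg : 7 ≤ g) : pVal g = 1 := by
  rw [pVal, fgen, dif_neg (by omega), map_one]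

theorem pVal_base {w : List Nat} (hw : w ∈ baseWords) : ev pVal w = 1 := by
  rw [show pVal = fun g => PresentedGroup.mk rels (fgen g) from rfl, ← ev_map]
  exact PresentedGroup.one_of_mem ⟨w, hw, rfl⟩

theorem sq_mem : ∀ g : Fin 7, [(g : Nat), (g : Nat)] ∈ baseWords := by decide +kernel

theorem pVal_sq (g : Nat) : pVal g * pVal g = 1 := by
  by_cases hg : g < 7
  · simpa [ev] using pVal_base (sq_mem ⟨g, hg⟩)
  · rw [pVal_outside (by omega), one_mul]

/-- homomorphisms out of the presented group -/
def hom {H : Type*} [Group H] (s : Nat → H) (hs : ∀ w ∈ baseWords, ev s w = 1)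
    (ho : ∀ g, 7 ≤ g → s g = 1) : P →* H :=
  PresentedGroup.toGroup (f := fun i : Fin 7 => s i) (by
    rintro r ⟨w, hw, rfl⟩
    rw [ev_map, show (fun g => FreeGroup.lift (fun i : Fin 7 => s i) (fgen g)) = s from funext fun g =>
      by
        by_cases hg : g < 7
        · rw [fgen, dif_pos hg, FreeGroup.lift_apply_of]
        · rw [fgen, dif_neg hg, map_one, ho g (by omega)]]
    exact hs w hw)

theorem hom_pVal {H : Type*} [Group H] (s : Nat → H) (hs : ∀ w ∈ baseWords, ev s w = 1)
    (ho : ∀ g, 7 ≤ g → s g = 1) (g : Nat) : hom s hs ho (pVal g) = s g := by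
  by_cases hg : g < 7
  · rw [pVal, fgen, dif_pos hg]
    exact PresentedGroup.toGroup.of _
  · rw [pVal_outside (by omega), map_one, ho g (by omega)]

theorem pVal_generates : Subgroup.closure (Set.range pVal) = ⊤ := by
  rw [eq_top_iff, ← PresentedGroup.closure_range_of, Subgroup.closure_le]
  rintro _ ⟨i, rfl⟩
  refine Subgroup.subset_closure ⟨i, ?_⟩
  rw [pVal, fgen, dif_pos i.2]
  rfl

theorem hom_ext {H : Type*} [Group H] {f f' : P →* H} (h : ∀ g, g < 7 → f (pVal g) = f' (pVal g)) :
    f = f' := by
  refine MonoidHom.eq_of_eqOn_dense pVal_generates ?_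
  rintro _ ⟨g, rfl⟩
  by_cases hg : g < 7
  · exact h g hg
  · rw [pVal_outside (by omega), map_one, map_one]

/-- the action on the cosets -/
noncomputable def rho : P →* Equiv.Perm (Fin L7.data.n) :=
  hom L7.valid.perm
    (fun w hw => by
      obtain ⟨k, hk, rfl⟩ := List.getElem_of_mem hw
      have hk' := hk
      rw [baseWords, List.length_take] at hk'
      have h := L7.valid.perm_rel (k := k) (lt_of_lt_of_le hk' (min_le_left _ _))
      rw [nthWord_eq_getD, List.getD_eq_getElem _ _ (lt_of_lt_of_le hk' (min_le_right _ _))] at h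
      simpa only [baseWords, List.getElem_take] using h)
    (fun g hg => by
      rw [Valid.perm, dif_neg]
      have : L7.data.ng = 7 := rfl
      omega)

theorem wordGroup : WordGroup P pVal baseWords := ⟨pVal_sq, fun _ hw => pVal_base hw⟩

theorem step4 : checkStep L4.weakData baseWords [0, 1, 2, 3] [] = true := by decide +kernel
theorem step5 : checkStep L5.weakData baseWords [0, 1, 2, 3, 4] [0, 1, 2, 3] = true := by
  decide +kernel
theorem step6 : checkStep L6.weakData baseWords [0, 1, 2, 3, 4, 5] [0, 1, 2, 3, 4] = true := by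
  decide +kernel
theorem step7 : checkStep L7.data baseWords [0, 1, 2, 3, 4, 5, 6] [0, 1, 2, 3, 4, 5] = true := by
  decide +kernel

theorem tower_prod : L7.data.n * (L6.weakData.n * (L5.weakData.n * (L4.weakData.n * 1))) =
    24 * 9196830720 := by
  decide +kernel

theorem finite_card_le : Finite P ∧ Nat.card P ≤ 24 * 9196830720 := by
  have h4 := tower_step wordGroup L4.valid step4 (letterSub_nil _)
  have h5 := tower_step wordGroup L5.valid step5 h4
  have h6 := tower_step wordGroup L6.valid step6 h5
  have h7 := tower_step wordGroup L7.valid step7 h6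
  rw [tower_prod] at h7
  have htop : letterSub pVal [0, 1, 2, 3, 4, 5, 6] = ⊤ := by
    rw [eq_top_iff, ← pVal_generates, Subgroup.closure_le]
    rintro _ ⟨g, rfl⟩
    by_cases hg : g < 7
    · refine Subgroup.subset_closure ⟨g, ?_, rfl⟩
      interval_cases g <;> simp
    · rw [pVal_outside (by omega)]; exact one_mem _
  rw [htop, Subgroup.card_top] at h7
  exact ⟨haveI := h7.1; Finite.of_equiv _ Subgroup.topEquiv.toEquiv, h7.2⟩

instance : Finite P := finite_card_le.1

/-- the projection to the simple group -/
def pi : P →* PSU 6 Cfsg.Agent.H16.F4 2 :=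
  hom piVal
    (fun w hw => eq_one_of_scalarW (by
      have h : baseWords.all scalarW = true := by decide +kernel
      exact List.all_eq_true.mp h w hw))
    (fun g hg => by rw [piVal, suVal, dif_neg (by omega), map_one])

theorem pi_pVal (g : Nat) : pi (pVal g) = piVal g := hom_pVal _ _ _ g

theorem pi_ev (w : List Nat) : pi (ev pVal w) = ev piVal w := by
  rw [ev_map]
  simp only [pi_pVal]

theorem pi_surjective : Function.Surjective pi := by
  rw [← MonoidHom.range_eq_top, eq_top_iff, ← piVal_generates, Subgroup.closure_le]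
  rintro _ ⟨g, rfl⟩
  exact ⟨_, pi_pVal g⟩

/-- the parity -/
def eps : P →* Multiplicative (ZMod 2) :=
  hom (fun g => if g < 7 then Multiplicative.ofAdd 1 else 1)
    (by decide +kernel) (fun g hg => if_neg (by omega))

theorem eps_pVal {g : Nat} (hg : g < 7) : eps (pVal g) = Multiplicative.ofAdd 1 := by
  rw [eps, hom_pVal, if_pos hg]

end Cfsg.Agent.H11.U62
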