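import Cfsg.Agent.H11.U62.Base
import Cfsg.Agent.H16.CosetEnum
import Cfsg.Agent.H11.U62.RepData

/-! Seven transvections of the unitary group of dimension six over four elements, tabulated on
vector codes. -/

set_option autoImplicit false
set_option maxRecDepth 8000
set_option maxHeartbeats 1000000

namespace Cfsg.Agent.H11.U62

open Cfsg.Agent.H16 Cfsg.Agent.H16.EnumData Matrix

/-- centre of a generator -/
def cen (k : Nat) : Herm.V6 := Herm.dec (cenCodes.getD k 0)

theorem cen_iso : ∀ k : Fin 7, hermForm 6 F4 2 (cen k) (cen k) = 0 := by
  have h : ∀ k : Fin 7, Herm.herm6 (cen k) (cen k) = 0 := by decide +kernel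
  intro k
  rw [Herm.hermForm_eq]
  exact h k

/-- value of a generator in the special unitary group -/
def suVal (g : Nat) : SU 6 F4 2 :=
  if h : g < 7 then H3.suTrans Herm.hF (cen g) 1 (cen_iso ⟨g, h⟩) Herm.one_trace else 1

/-- value of a generator in the simple group -/
def piVal (g : Nat) : PSU 6 F4 2 := QuotientGroup.mk' _ (suVal g)

/-- action of a generator on codes -/
noncomputable def stepC (g c : Nat) : Nat :=
  if g = 0 then stepArr0.get 12 c else if g = 1 then stepArr1.get 12 c
  else if g = 2 then stepArr2.get 12 c else if g = 3 then stepArr3.get 12 c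
  else if g = 4 then stepArr4.get 12 c else if g = 5 then stepArr5.get 12 c
  else stepArr6.get 12 c

/-- check of a table entry -/
noncomputable def stepOk (k : Nat) (c : Nat) : Bool :=
  forceNat (stepC k c) fun d =>
    Nat.ble (d + 1) 4096 && decide (∀ j : Fin 6, Herm.dec d j = Herm.tmap (cen k) (Herm.dec c) j)

theorem step_ok0 : allFrom (stepOk 0) 4096 0 = true := by decide +kernel
theorem step_ok1 : allFrom (stepOk 1) 4096 0 = true := by decide +kernel
theorem step_ok2 : allFrom (stepOk 2) 4096 0 = true := by decide +kernel
theorem step_ok3 : allFrom (stepOk 3) 4096 0 = true := by decide +kernel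
theorem step_ok4 : allFrom (stepOk 4) 4096 0 = true := by decide +kernel
theorem step_ok5 : allFrom (stepOk 5) 4096 0 = true := by decide +kernel
theorem step_ok6 : allFrom (stepOk 6) 4096 0 = true := by decide +kernel

end Cfsg.Agent.H11.U62
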